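import Cfsg.Agent.H988.PR.Form
import Cfsg.Agent.H703.PR.LForm

/-!
# The parity law for all primes (helper988, from helper672's core and helper703's `lform`)

`core_of_sgn` : the sign formula gives `H703.PR.Core`;
`core_odd`, `core_two` : `Core` over the field of the roots of unity of order `N`;
`law_odd`, `law_two` : the law for the generalized characters vanishing on the `p`-singular elements.
-/

set_option autoImplicit false

open Cfsg Equiv Equiv.Perm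

namespace Cfsg.Agent.H988.PR

open Cfsg.Agent.H703.PR Cfsg.Agent.H672.PR

universe u

theorem trans_out {α : Type*} [Fintype α] [DecidableEq α] (σ : Perm α) [Fintype (Orbits σ)] :
    Trans σ (Finset.univ.image fun o : Orbits σ => o.out) := by
  intro a
  refine ⟨(Quotient.mk (SameCycle.setoid σ) a).out, ⟨Finset.mem_image_of_mem _ (Finset.mem_univ _),
    (out_sameCycle σ a).symm⟩, ?_⟩
  rintro t ⟨ht, hat⟩
  obtain ⟨o, -, rfl⟩ := Finset.mem_image.1 ht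
  have h1 : Quotient.mk (SameCycle.setoid σ) a = Quotient.mk (SameCycle.setoid σ) o.out := Quotient.sound hat
  rw [h1, Quotient.out_eq]

theorem core_of_sgn {p : ℕ} {G : Type u} [Group G] [Fintype G] [Fintype (IrrCharacter G)] [DecidableEq (IrrCharacter G)]
    {M : Ideal AlgInt} {K : Type*} [Field K] [Algebra K ℂ] {σ : Perm (IrrCharacter G)} (h : Sgn p G M K σ) :
    Core p M K G σ := by
  classical
  have := Fintype.ofFinite (Orbits σ)
  intro e he heO m hm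
  have h1 := h _ (trans_out σ) e he heO m hm
  set T := Finset.univ.image fun o : Orbits σ => o.out with hT
  have h2 : Nat.card {χ : IrrCharacter G // Odd (m χ)} = ∑ χ : IrrCharacter G, if Odd (m χ) then 1 else 0 := by
    rw [Nat.card_eq_fintype_card, Fintype.card_subtype, Finset.card_filter]
  have h3 : Nat.card {o : Orbits σ // Odd (m o.out)} =
      ∑ χ : IrrCharacter G, if χ ∈ T then (if Odd (m χ) then 1 else 0) else 0 := by
    rw [Nat.card_eq_fintype_card, Fintype.card_subtype, Finset.card_filter, Finset.sum_ite_mem, Finset.univ_inter, hT,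
      Finset.sum_image]
    intro o _ o' _ h
    have h : o.out = o'.out := h
    rw [← Quotient.out_eq o, ← Quotient.out_eq o', h]
  rw [finsum_eq_sum_of_fintype, h2, h3, ← Finset.sum_add_distrib, ← Finset.sum_add_distrib]
  have h4 : Even (∑ χ : IrrCharacter G, (m χ ^ 2 * dh p χ + (if Odd (m χ) then 1 else 0) +
        if χ ∈ T then (if Odd (m χ) then 1 else 0) else 0) +
      ∑ χ : IrrCharacter G, m χ ^ 2 * ((Nat.card G).factorization p - (charDegree (χ : G → ℂ)).factorization p +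
        if χ ∈ T then 0 else 1)) := by
    rw [← Finset.sum_add_distrib]
    refine Finset.even_sum _ fun χ _ => ?_
    change Even (m χ ^ 2 * dh p χ + (if Odd (m χ) then 1 else 0) + (if χ ∈ T then (if Odd (m χ) then 1 else 0) else 0) +
      m χ ^ 2 * (dh p χ + if χ ∈ T then 0 else 1))
    by_cases hc : χ ∈ T
    · simp only [if_pos hc]
      exact ⟨m χ ^ 2 * dh p χ + if Odd (m χ) then 1 else 0, by ring⟩
    · simp only [if_neg hc]
      by_cases ho : Odd (m χ)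
      · simp only [if_pos ho]
        obtain ⟨r, hr⟩ := ho
        exact ⟨m χ ^ 2 * dh p χ + 2 * r ^ 2 + 2 * r + 1, by rw [hr]; ring⟩
      · simp only [if_neg ho]
        obtain ⟨r, hr⟩ := Nat.not_odd_iff_even.1 ho
        exact ⟨m χ ^ 2 * dh p χ + 2 * r ^ 2, by rw [hr]; ring⟩
  exact (Nat.even_add.1 h4).2 h1

variable {G : Type u} [Group G] [Fintype G]

/-- **`Core` for odd `p`** -/
theorem core_odd {p : ℕ} (hp2 : p ≠ 2) {M : Ideal AlgInt} (hM : IsPModular p M) {a N : ℕ} (ha : a ≠ 0) (hN : ¬ p ∣ N)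
    (hG : Nat.card G ∣ p ^ a * N) {ξ : ℂ} (hξ : IsPrimitiveRoot ξ N) {k : ℕ} (hkp : ¬ p ∣ k)
    (hk : ∀ x : (ZMod (p ^ a))ˣ, ∃ i : ℕ, (x : ZMod (p ^ a)) = (k : ZMod (p ^ a)) ^ i) :
    ∃ (l : ℕ) (σ : Perm (IrrCharacter G)), l.Coprime (p ^ a * N) ∧ l ≡ k [MOD p ^ a] ∧ l ≡ 1 [MOD N] ∧
      (∀ χ g, (σ χ : G → ℂ) g = (χ : G → ℂ) (g ^ l)) ∧ Core p M (IntermediateField.adjoin ℚ {ξ}) G σ := by
  classical
  have : Finite (IrrCharacter G) := Characters.Core.finite_irr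
  have := Fintype.ofFinite (IrrCharacter G)
  obtain ⟨l, σ, h1, h2, h3, h4, h5⟩ := sgn_odd (G := G) hp2 hM ha hN hG hξ hkp hk
  exact ⟨l, σ, h1, h2, h3, h4, core_of_sgn h5⟩

/-- **`Core` for `p = 2`** -/
theorem core_two {M : Ideal AlgInt} (hM : IsPModular 2 M) {a N : ℕ} (ha : 3 ≤ a) (hN : ¬ 2 ∣ N)
    (hG : Nat.card G ∣ 2 ^ a * N) {ξ : ℂ} (hξ : IsPrimitiveRoot ξ N) :
    ∃ (l : ℕ) (σ : Perm (IrrCharacter G)), l.Coprime (2 ^ a * N) ∧ l ≡ 5 [MOD 2 ^ a] ∧ l ≡ 1 [MOD N] ∧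
      (∀ χ g, (σ χ : G → ℂ) g = (χ : G → ℂ) (g ^ l)) ∧ Core 2 M (IntermediateField.adjoin ℚ {ξ}) G σ := by
  classical
  have : Finite (IrrCharacter G) := Characters.Core.finite_irr
  have := Fintype.ofFinite (IrrCharacter G)
  obtain ⟨l, σ, h1, h2, h3, h4, h5⟩ := sgn_two (G := G) hM ha hN hG hξ
  exact ⟨l, σ, h1, h2, h3, h4, core_of_sgn h5⟩

/-- **the parity law for odd `p`** : `σ` is the action of the `l`-th power map, `l` a generator modulo `p ^ a`, `l ≡ 1`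
modulo the `p'`-part of the order -/
theorem law_odd {p : ℕ} (hp2 : p ≠ 2) {M : Ideal AlgInt} (hM : IsPModular p M) {a : ℕ} (ha : a ≠ 0)
    (hG : (Nat.card G).factorization p ≤ a) {k : ℕ} (hkp : ¬ p ∣ k)
    (hk : ∀ x : (ZMod (p ^ a))ˣ, ∃ i : ℕ, (x : ZMod (p ^ a)) = (k : ZMod (p ^ a)) ^ i) :
    ∃ (l : ℕ) (σ : Perm (IrrCharacter G)), l.Coprime (Nat.card G) ∧ l ≡ k [MOD p ^ a] ∧
      l ≡ 1 [MOD Nat.card G / p ^ (Nat.card G).factorization p] ∧
      (∀ χ g, (σ χ : G → ℂ) g = (χ : G → ℂ) (g ^ l)) ∧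
      ∀ B : Set (IrrCharacter G), IsPBlock M B → ∀ x : IrrCharacter G → ℤ,
        (∀ g : G, p ∣ orderOf g → ∑ᶠ χ : IrrCharacter G, (x χ : ℂ) * (χ : G → ℂ) g = 0) →
        Even (∑ᶠ χ ∈ B, x χ * ((dh p χ : ℤ) + 1) + orb σ (fun χ => open Classical in if χ ∈ B then x χ else 0)) := by
  have : Fact p.Prime := ⟨hM.1⟩
  set N := Nat.card G / p ^ (Nat.card G).factorization p with hNdef
  have hN0 : N ≠ 0 := (Nat.ordCompl_pos p Nat.card_pos.ne').ne'
  have hN : ¬ p ∣ N := Nat.not_dvd_ordCompl hM.1 Nat.card_pos.ne'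
  have hGN : Nat.card G ∣ p ^ a * N := by
    conv_lhs => rw [← Nat.ordProj_mul_ordCompl_eq_self (Nat.card G) p]
    exact Nat.mul_dvd_mul_right (pow_dvd_pow p hG) _
  obtain ⟨ξ, hξ⟩ : ∃ ξ : ℂ, IsPrimitiveRoot ξ N := ⟨_, Complex.isPrimitiveRoot_exp N hN0⟩
  obtain ⟨l, σ, h1, h2, h3, h4, h5⟩ := core_odd (G := G) hp2 hM ha hN hGN hξ hkp hk
  exact ⟨l, σ, Nat.Coprime.coprime_dvd_right hGN h1, h2, h3, h4, fun B hB x hx =>
    lform hM (hroot_adjoin hN0 hξ) h5 hB x hx⟩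

/-- **the parity law for `p = 2`** : `σ` is the action of the `l`-th power map, `l ≡ 5` modulo `2 ^ a`, `l ≡ 1`
modulo the odd part of the order -/
theorem law_two {M : Ideal AlgInt} (hM : IsPModular 2 M) {a : ℕ} (ha : 3 ≤ a) (hG : (Nat.card G).factorization 2 ≤ a) :
    ∃ (l : ℕ) (σ : Perm (IrrCharacter G)), l.Coprime (Nat.card G) ∧ l ≡ 5 [MOD 2 ^ a] ∧
      l ≡ 1 [MOD Nat.card G / 2 ^ (Nat.card G).factorization 2] ∧
      (∀ χ g, (σ χ : G → ℂ) g = (χ : G → ℂ) (g ^ l)) ∧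
      ∀ B : Set (IrrCharacter G), IsPBlock M B → ∀ x : IrrCharacter G → ℤ,
        (∀ g : G, 2 ∣ orderOf g → ∑ᶠ χ : IrrCharacter G, (x χ : ℂ) * (χ : G → ℂ) g = 0) →
        Even (∑ᶠ χ ∈ B, x χ * ((dh 2 χ : ℤ) + 1) + orb σ (fun χ => open Classical in if χ ∈ B then x χ else 0)) := by
  have : Fact (Nat.Prime 2) := ⟨Nat.prime_two⟩
  set N := Nat.card G / 2 ^ (Nat.card G).factorization 2 with hNdef
  have hN0 : N ≠ 0 := (Nat.ordCompl_pos 2 Nat.card_pos.ne').ne'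
  have hN : ¬ 2 ∣ N := Nat.not_dvd_ordCompl Nat.prime_two Nat.card_pos.ne'
  have hGN : Nat.card G ∣ 2 ^ a * N := by
    conv_lhs => rw [← Nat.ordProj_mul_ordCompl_eq_self (Nat.card G) 2]
    exact Nat.mul_dvd_mul_right (pow_dvd_pow 2 hG) _
  obtain ⟨ξ, hξ⟩ : ∃ ξ : ℂ, IsPrimitiveRoot ξ N := ⟨_, Complex.isPrimitiveRoot_exp N hN0⟩
  obtain ⟨l, σ, h1, h2, h3, h4, h5⟩ := core_two (G := G) hM ha hN hGN hξ
  exact ⟨l, σ, Nat.Coprime.coprime_dvd_right hGN h1, h2, h3, h4, fun B hB x hx =>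
    lform hM (hroot_adjoin hN0 hξ) h5 hB x hx⟩

/-- the generators exist -/
theorem exists_gen {p a : ℕ} [Fact p.Prime] (hp2 : p ≠ 2) (ha : a ≠ 0) :
    ∃ k : ℕ, ¬ p ∣ k ∧ ∀ x : (ZMod (p ^ a))ˣ, ∃ i : ℕ, (x : ZMod (p ^ a)) = (k : ZMod (p ^ a)) ^ i := by
  have hp : p.Prime := Fact.out
  have : NeZero (p ^ a) := ⟨pow_ne_zero _ hp.ne_zero⟩
  have hcyc : IsCyclic (ZMod (p ^ a))ˣ := ZMod.isCyclic_units_of_prime_pow p hp hp2 a
  obtain ⟨g, hg⟩ := hcyc.exists_generator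
  refine ⟨(g : ZMod (p ^ a)).val, ?_, ?_⟩
  · intro h
    have h1 : Nat.Coprime (g : ZMod (p ^ a)).val (p ^ a) := ZMod.val_coe_unit_coprime g
    have h2 := Nat.eq_one_of_dvd_coprimes h1 h (dvd_pow_self p ha)
    exact hp.one_lt.ne' h2
  · intro x
    obtain ⟨i, hi⟩ := (mem_powers_iff_mem_zpowers).2 (hg x)
    refine ⟨i, ?_⟩
    rw [ZMod.natCast_zmod_val, ← hi]
    simp

end Cfsg.Agent.H988.PR
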