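import Cfsg.Agent.H672.PR.Main
import Cfsg.Agent.H988.PR.Ends
import Cfsg.Agent.H755.KS.Val
import Cfsg.Agent.OddOrderCharacters.GaloisTwist

/-!
# The general parity lemma: the sign formula (helper988)

`e` an idempotent of `K[G]` with local coefficients, `m χ = χ(e)`, `K` unramified at `p` with the roots of unity of order `N`,
`|G| ∣ p ^ a N`, `c ∈ Aut(ℂ/K)` with `c ζ = ζ ^ k`, `k` a generator modulo `p ^ a` (`p` odd), `k = 5` (`p = 2`),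
`T` a transversal of the orbits of `c` on the characters:
`∑ (m χ)² (v|G| - v χ(1) + [χ ∉ T])` is even.
-/

set_option autoImplicit false

open Cfsg

namespace Cfsg.Agent.H988.PR

open Cfsg.Agent.Characters Cfsg.Agent.H162.KS Cfsg.Agent.H703.KS Cfsg.Agent.H672.PR Cfsg.Agent.Blocks.LocalRing
  Cfsg.Agent.OddOrderCharacters.GaloisTwist

universe u

section

variable {K : Type*} [Field K] [Algebra K ℂ] {G : Type u} [Group G]

/-- the Galois action on the characters -/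
noncomputable def galp (τ : ℂ ≃ₐ[K] ℂ) : Equiv.Perm (IrrCharacter G) where
  toFun χ := ⟨fun g => τ ((χ : G → ℂ) g), isIrrCharacter_map τ.toRingEquiv χ.2⟩
  invFun χ := ⟨fun g => τ.symm ((χ : G → ℂ) g), isIrrCharacter_map τ.symm.toRingEquiv χ.2⟩
  left_inv _ := Subtype.ext (funext fun _ => τ.symm_apply_apply _)
  right_inv _ := Subtype.ext (funext fun _ => τ.apply_symm_apply _)

theorem galp_apply (τ : ℂ ≃ₐ[K] ℂ) (χ : IrrCharacter G) (g : G) : (galp τ χ : G → ℂ) g = τ ((χ : G → ℂ) g) := rfl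

theorem root_dep {p a N : ℕ} (hp : p.Prime) (hN : ¬ p ∣ N)
    (hroot : ∀ z : ℂ, z ^ N = 1 → ∃ k : K, algebraMap K ℂ k = z) {ζ : ℂ} (hζ : IsPrimitiveRoot ζ (p ^ a))
    {τ τ' : ℂ ≃ₐ[K] ℂ} (h : τ ζ = τ' ζ) {z : ℂ} (hz : z ^ (p ^ a * N) = 1) : τ z = τ' z := by
  have hN0 : N ≠ 0 := by
    rintro rfl
    exact hN (dvd_zero _)
  have hcop : Nat.gcd N (p ^ a) = 1 := ((Nat.Prime.coprime_iff_not_dvd hp).2 hN).symm.pow_right a
  have hz0 : z ≠ 0 := by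
    rintro rfl
    rw [zero_pow (mul_ne_zero (pow_ne_zero _ hp.ne_zero) hN0)] at hz
    exact zero_ne_one hz
  have hbez := Nat.gcd_eq_gcd_ab N (p ^ a)
  rw [hcop] at hbez
  have : NeZero (p ^ a) := ⟨pow_ne_zero _ hp.ne_zero⟩
  obtain ⟨j, -, hj⟩ := hζ.eq_pow_of_pow_eq_one (ξ := z ^ N) (by rw [← pow_mul, mul_comm, hz])
  obtain ⟨k, hk⟩ := hroot (z ^ p ^ a) (by rw [← pow_mul, hz])
  have h1 : z = (ζ ^ j) ^ Nat.gcdA N (p ^ a) * (algebraMap K ℂ k) ^ Nat.gcdB N (p ^ a) := by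
    rw [hj, hk, ← zpow_natCast z N, ← zpow_natCast z (p ^ a), ← zpow_mul, ← zpow_mul, ← zpow_add₀ hz0, ← hbez]
    simp
  rw [h1, map_mul, map_mul, map_zpow₀, map_zpow₀, map_zpow₀, map_zpow₀, map_pow, map_pow, h, τ.commutes, τ'.commutes]

theorem val_dep [Finite G] {p a N : ℕ} (hp : p.Prime) (hN : ¬ p ∣ N) (hG : Nat.card G ∣ p ^ a * N)
    (hroot : ∀ z : ℂ, z ^ N = 1 → ∃ k : K, algebraMap K ℂ k = z) {ζ : ℂ} (hζ : IsPrimitiveRoot ζ (p ^ a))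
    {τ τ' : ℂ ≃ₐ[K] ℂ} (h : τ ζ = τ' ζ) {χ : G → ℂ} (hχ : IsCharacter G χ) (g : G) : τ (χ g) = τ' (χ g) := by
  have hN0 : N ≠ 0 := by
    rintro rfl
    exact hN (dvd_zero _)
  have hn : p ^ a * N ≠ 0 := mul_ne_zero (pow_ne_zero _ hp.ne_zero) hN0
  have : NeZero (p ^ a * N) := ⟨hn⟩
  obtain ⟨ξ, hξ⟩ : ∃ ξ : ℂ, IsPrimitiveRoot ξ (p ^ a * N) := ⟨_, Complex.isPrimitiveRoot_exp _ hn⟩
  obtain ⟨m, -, hm⟩ := hξ.eq_pow_of_pow_eq_one (ξ := τ ξ) (by rw [← map_pow, hξ.pow_eq_one, map_one])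
  have h1 : ∀ z : ℂ, z ^ (p ^ a * N) = 1 → τ z = z ^ m := fun z hz => by
    obtain ⟨i, -, rfl⟩ := hξ.eq_pow_of_pow_eq_one hz
    rw [map_pow, ← hm, ← pow_mul, ← pow_mul, mul_comm]
  have h2 : ∀ z : ℂ, z ^ (p ^ a * N) = 1 → τ' z = z ^ m := fun z hz => by
    rw [← root_dep hp hN hroot hζ h hz, h1 z hz]
  have hg : g ^ (p ^ a * N) = 1 := by
    obtain ⟨d, hd⟩ := hG
    rw [hd, pow_mul, pow_card_eq_one', one_pow]
  have h3 := map_apply τ.toRingEquiv hn h1 hχ g hg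
  have h4 := map_apply τ'.toRingEquiv hn h2 hχ g hg
  exact h3.trans h4.symm

theorem galp_dep [Finite G] {p a N : ℕ} (hp : p.Prime) (hN : ¬ p ∣ N) (hG : Nat.card G ∣ p ^ a * N)
    (hroot : ∀ z : ℂ, z ^ N = 1 → ∃ k : K, algebraMap K ℂ k = z) {ζ : ℂ} (hζ : IsPrimitiveRoot ζ (p ^ a))
    {τ τ' : ℂ ≃ₐ[K] ℂ} (h : τ ζ = τ' ζ) : (galp τ : Equiv.Perm (IrrCharacter G)) = galp τ' := by
  apply Equiv.ext
  intro χ
  apply Subtype.ext
  funext g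
  obtain ⟨n, ρ, _, hρ⟩ := χ.2
  exact val_dep hp hN hG hroot hζ h ⟨n, ρ, hρ⟩ g

theorem sg_eq [Fintype (IrrCharacter G)] [DecidableEq (IrrCharacter G)] (m : IrrCharacter G → ℕ)
    (T : Finset (IrrCharacter G)) : sg m T = (-1) ^ (∑ χ, m χ ^ 2 * if χ ∈ T then 0 else 1) := by
  rw [sg, ← Finset.prod_pow_eq_pow_sum]
  refine Finset.prod_congr rfl fun χ _ => ?_
  split_ifs
  · rw [one_pow, mul_zero, pow_zero]
  · rw [mul_one]

theorem units_coe_eq {z : ℂ} (hz : z ≠ 0) {s t : ℤˣ} (h : ((s : ℤ) : ℂ) * z = ((t : ℤ) : ℂ) * z) : s = t := by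
  have h2 := mul_right_cancel₀ hz h
  apply Units.ext
  exact_mod_cast h2

/-- the common part -/
theorem sign_aux [Fintype G] [Fintype (IrrCharacter G)] [DecidableEq (IrrCharacter G)] {p : ℕ} {M : Ideal AlgInt}
    (hM : IsPModular p M)
    (hfac : ∀ z : K, z ≠ 0 → ∃ (n : ℤ) (u : K), z = (p : K) ^ n * u ∧ MemLocalRing M (algebraMap K ℂ u) ∧
      MemLocalRing M (algebraMap K ℂ u)⁻¹)
    {e : MonoidAlgebra K G} (he : e * e = e) (heO : ∀ g, MemLocalRing M (algebraMap K ℂ (e.coeff g)))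
    (m : IrrCharacter G → ℕ) (hm : ∀ χ : IrrCharacter G, ev (χ : G → ℂ) e = m χ)
    {a N : ℕ} (hN : ¬ p ∣ N) (hG : Nat.card G ∣ p ^ a * N)
    (hroot : ∀ z : ℂ, z ^ N = 1 → ∃ k : K, algebraMap K ℂ k = z) {ζ : ℂ} (hζ : IsPrimitiveRoot ζ (p ^ a))
    {c : ℂ ≃ₐ[K] ℂ} (hend : ∀ z : ℂ, z ≠ 0 → ∀ ε : (ℂ ≃ₐ[K] ℂ) → ℤˣ, (∀ τ, τ z = ((ε τ : ℤ) : ℂ) * z) →
      (∀ τ τ' : ℂ ≃ₐ[K] ℂ, τ ζ = τ' ζ → ε τ = ε τ') → ∀ (n : ℤ) (u : K), Un (locO K hM) u →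
      z ^ 2 = algebraMap K ℂ ((p : K) ^ n * u) → ε c = (-1) ^ n)
    {σ : Equiv.Perm (IrrCharacter G)} (hσ : ∀ χ g, (σ χ : G → ℂ) g = c ((χ : G → ℂ) g)) {T : Finset (IrrCharacter G)}
    (hT : Trans σ T) :
    Even (∑ χ : IrrCharacter G, m χ ^ 2 *
      ((Nat.card G).factorization p - (charDegree (χ : G → ℂ)).factorization p + if χ ∈ T then 0 else 1)) := by
  obtain ⟨z, k, u, n, hz, hk, hk2, hu, hpar, hgal⟩ := exists_val hM hfac he heO m hm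
  let tr : Equiv.Perm (IrrCharacter G) → Finset (IrrCharacter G) := fun σ => (exists_trans σ).choose
  have htr : ∀ σ, Trans σ (tr σ) := fun σ => (exists_trans σ).choose_spec
  have hε : ∀ τ : ℂ ≃ₐ[K] ℂ, τ z = (((sg m (tr (galp τ)) : ℤˣ) : ℤ) : ℂ) * z := fun τ =>
    hgal τ (galp τ) (galp_apply τ) _ (htr _)
  have h1 := hend z hz (fun τ => sg m (tr (galp τ))) hε (fun τ τ' h => by
    have h2 := galp_dep (G := G) hM.1 hN hG hroot hζ h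
    simp only [h2]) n u hu (by rw [← hk, hk2])
  have h2 : sg m T = sg m (tr (galp c)) := units_coe_eq hz (by rw [← hgal c σ hσ T hT, ← hε c])
  have h3 : sg m T = (-1) ^ n := by rw [h2, ← h1]
  rw [sg_eq] at h3
  simp only [mul_add, Finset.sum_add_distrib]
  rw [Nat.even_add, ← hpar]
  set s := ∑ χ : IrrCharacter G, m χ ^ 2 * if χ ∈ T then 0 else 1 with hs
  constructor
  · intro hn
    rw [hn.neg_one_zpow] at h3
    by_contra hodd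
    rw [Nat.not_even_iff_odd] at hodd
    rw [hodd.neg_one_pow] at h3
    exact absurd h3 (by decide)
  · intro hn
    rw [hn.neg_one_pow] at h3
    by_contra hodd
    rw [Int.not_even_iff_odd] at hodd
    rw [hodd.neg_one_zpow] at h3
    exact absurd h3 (by decide)

theorem hfac_of {p : ℕ} {M : Ideal AlgInt} (hM : IsPModular p M)
    (hfac : ∀ z : K, z ≠ 0 → ∃ (n : ℤ) (u : K), z = (p : K) ^ n * u ∧ MemLocalRing M (algebraMap K ℂ u) ∧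
      MemLocalRing M (algebraMap K ℂ u)⁻¹) :
    ∀ z : K, z ≠ 0 → ∃ (n : ℤ) (u : K), u ∈ locO K hM ∧ u⁻¹ ∈ locO K hM ∧ z = (p : K) ^ n * u := by
  intro z hz
  obtain ⟨n, u, h1, h2, h3⟩ := hfac z hz
  exact ⟨n, u, h2, by rw [mem_locO, map_inv₀]; exact h3, h1⟩

/-- **the sign formula for odd `p`** -/
theorem sign_odd [Fintype G] [Fintype (IrrCharacter G)] [DecidableEq (IrrCharacter G)] {p : ℕ} (hp2 : p ≠ 2)
    {M : Ideal AlgInt} (hM : IsPModular p M)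
    (hfac : ∀ z : K, z ≠ 0 → ∃ (n : ℤ) (u : K), z = (p : K) ^ n * u ∧ MemLocalRing M (algebraMap K ℂ u) ∧
      MemLocalRing M (algebraMap K ℂ u)⁻¹)
    {e : MonoidAlgebra K G} (he : e * e = e) (heO : ∀ g, MemLocalRing M (algebraMap K ℂ (e.coeff g)))
    (m : IrrCharacter G → ℕ) (hm : ∀ χ : IrrCharacter G, ev (χ : G → ℂ) e = m χ)
    {a N : ℕ} (ha : a ≠ 0) (hN : ¬ p ∣ N) (hG : Nat.card G ∣ p ^ a * N)
    (hroot : ∀ z : ℂ, z ^ N = 1 → ∃ k : K, algebraMap K ℂ k = z) {ζ : ℂ} (hζ : IsPrimitiveRoot ζ (p ^ a))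
    {c : ℂ ≃ₐ[K] ℂ} {k : ℕ} (hck : c ζ = ζ ^ k)
    (hk : ∀ x : (ZMod (p ^ a))ˣ, ∃ i : ℕ, (x : ZMod (p ^ a)) = (k : ZMod (p ^ a)) ^ i)
    {σ : Equiv.Perm (IrrCharacter G)} (hσ : ∀ χ g, (σ χ : G → ℂ) g = c ((χ : G → ℂ) g)) {T : Finset (IrrCharacter G)}
    (hT : Trans σ T) :
    Even (∑ χ : IrrCharacter G, m χ ^ 2 *
      ((Nat.card G).factorization p - (charDegree (χ : G → ℂ)).factorization p + if χ ∈ T then 0 else 1)) := by
  have : Fact p.Prime := ⟨hM.1⟩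
  have : NeZero (p ^ a) := ⟨pow_ne_zero _ hM.1.ne_zero⟩
  have hkv : ((hζ.autToPow K c : (ZMod (p ^ a))ˣ) : ZMod (p ^ a)) = (k : ZMod (p ^ a)) := by
    have h1 : ζ ^ ((hζ.autToPow K c : (ZMod (p ^ a))ˣ) : ZMod (p ^ a)).val = ζ ^ (k % p ^ a) := by
      rw [hζ.autToPow_spec K c, hck, pow_eq_pow_mod k hζ.pow_eq_one]
    have h2 := hζ.pow_inj (ZMod.val_lt _) (Nat.mod_lt _ (pow_pos hM.1.pos a)) h1
    rw [← ZMod.natCast_zmod_val ((hζ.autToPow K c : (ZMod (p ^ a))ˣ) : ZMod (p ^ a)), h2, ZMod.natCast_mod]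
  refine sign_aux hM hfac he heO m hm hN hG hroot hζ (c := c) ?_ hσ hT
  intro z hz ε hε hdep n u hu hn
  refine end_odd hp2 (p_mem hM) (p_inv_not_mem hM) (hfac_of hM hfac) ha hζ hz ε hε hdep ?_ hu hn
  intro x
  obtain ⟨i, hi⟩ := hk x
  refine Subgroup.mem_zpowers_iff.2 ⟨i, ?_⟩
  apply Units.ext
  rw [zpow_natCast, Units.val_pow_eq_pow_val, hkv, hi]

/-- **the sign formula for `p = 2`** -/
theorem sign_two [Fintype G] [Fintype (IrrCharacter G)] [DecidableEq (IrrCharacter G)]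
    {M : Ideal AlgInt} (hM : IsPModular 2 M)
    (hfac : ∀ z : K, z ≠ 0 → ∃ (n : ℤ) (u : K), z = ((2 : ℕ) : K) ^ n * u ∧ MemLocalRing M (algebraMap K ℂ u) ∧
      MemLocalRing M (algebraMap K ℂ u)⁻¹)
    {e : MonoidAlgebra K G} (he : e * e = e) (heO : ∀ g, MemLocalRing M (algebraMap K ℂ (e.coeff g)))
    (m : IrrCharacter G → ℕ) (hm : ∀ χ : IrrCharacter G, ev (χ : G → ℂ) e = m χ)
    {a N : ℕ} (ha : 3 ≤ a) (hN : ¬ 2 ∣ N) (hG : Nat.card G ∣ 2 ^ a * N)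
    (hroot : ∀ z : ℂ, z ^ N = 1 → ∃ k : K, algebraMap K ℂ k = z) {ζ : ℂ} (hζ : IsPrimitiveRoot ζ (2 ^ a))
    {c : ℂ ≃ₐ[K] ℂ} (hc : c ζ = ζ ^ 5)
    {σ : Equiv.Perm (IrrCharacter G)} (hσ : ∀ χ g, (σ χ : G → ℂ) g = c ((χ : G → ℂ) g)) {T : Finset (IrrCharacter G)}
    (hT : Trans σ T) :
    Even (∑ χ : IrrCharacter G, m χ ^ 2 *
      ((Nat.card G).factorization 2 - (charDegree (χ : G → ℂ)).factorization 2 + if χ ∈ T then 0 else 1)) :=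
  sign_aux hM hfac he heO m hm hN hG hroot hζ (c := c) (fun _ hz ε hε hdep _ _ hu hn =>
    end_two (p_mem hM) (p_inv_not_mem hM) (hfac_of hM hfac) ha hζ hz ε hε hdep hc hu hn) hσ hT

end

section Exists

/-- automorphisms of `ℂ` over the field of the roots of unity of order `N` -/
theorem exists_aut {p a N k : ℕ} (hp : p.Prime) (hN : ¬ p ∣ N) {ξ : ℂ} (hξ : IsPrimitiveRoot ξ N) (hk : ¬ p ∣ k) :
    ∃ (c : ℂ ≃ₐ[IntermediateField.adjoin ℚ {ξ}] ℂ) (l : ℕ), l.Coprime (p ^ a * N) ∧ l ≡ k [MOD p ^ a] ∧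
      l ≡ 1 [MOD N] ∧ ∀ z : ℂ, z ^ (p ^ a * N) = 1 → c z = z ^ l := by
  have hN0 : N ≠ 0 := by
    rintro rfl
    exact hN (dvd_zero _)
  have hn : p ^ a * N ≠ 0 := mul_ne_zero (pow_ne_zero _ hp.ne_zero) hN0
  have hcop : Nat.Coprime (p ^ a) N := ((Nat.Prime.coprime_iff_not_dvd hp).2 hN).pow_left a
  obtain ⟨l, h1, h2⟩ := Nat.chineseRemainder hcop k 1
  have hl : l.Coprime (p ^ a * N) := by
    refine Nat.Coprime.mul_right ?_ ?_
    · have h3 := h1.gcd_eq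
      have h4 : Nat.gcd k (p ^ a) = 1 := ((Nat.Prime.coprime_iff_not_dvd hp).2 hk).symm.pow_right a
      rw [h4] at h3
      exact h3
    · have h3 := h2.gcd_eq
      rw [Nat.gcd_one_left] at h3
      exact h3
  obtain ⟨σ, hσ⟩ := Characters.Galois.exists_ringEquiv_complex hn hl
  have hξ1 : σ ξ = ξ := by
    rw [hσ ξ (by rw [mul_comm, pow_mul, hξ.pow_eq_one, one_pow])]
    have h3 : ξ ^ l = ξ ^ 1 := by
      rw [pow_eq_pow_mod l hξ.pow_eq_one, pow_eq_pow_mod 1 hξ.pow_eq_one]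
      exact congrArg _ h2
    rw [h3, pow_one]
  have hfix : ∀ x : IntermediateField.adjoin ℚ {ξ}, σ (x : ℂ) = x := by
    rintro ⟨x, hx⟩
    induction hx using IntermediateField.adjoin_induction with
    | mem x hx =>
      change σ x = x
      rw [Set.mem_singleton_iff.1 hx]
      exact hξ1
    | algebraMap x => exact map_ratCast σ x
    | add x y hx hy h3 h4 =>
      change σ (x + y) = x + y
      change σ x = x at h3
      change σ y = y at h4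
      rw [map_add, h3, h4]
    | inv x hx h3 =>
      change σ x⁻¹ = x⁻¹
      change σ x = x at h3
      rw [map_inv₀, h3]
    | mul x y hx hy h3 h4 =>
      change σ (x * y) = x * y
      change σ x = x at h3
      change σ y = y at h4
      rw [map_mul, h3, h4]
  exact ⟨AlgEquiv.ofRingEquiv (f := σ) hfix, l, hl, h1, h2, hσ⟩

variable {G : Type u} [Group G]

/-- `c` acts on the characters of `G` as the power map -/
theorem galp_pow {K : Type*} [Field K] [Algebra K ℂ] [Finite G] {n l : ℕ} (hn : n ≠ 0) (hG : Nat.card G ∣ n)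
    {c : ℂ ≃ₐ[K] ℂ} (hc : ∀ z : ℂ, z ^ n = 1 → c z = z ^ l) (χ : IrrCharacter G) (g : G) :
    (galp c χ : G → ℂ) g = (χ : G → ℂ) (g ^ l) := by
  obtain ⟨d, ρ, _, hρ⟩ := χ.2
  have hg : g ^ n = 1 := by
    obtain ⟨d, hd⟩ := hG
    rw [hd, pow_mul, pow_card_eq_one', one_pow]
  exact map_apply c.toRingEquiv hn hc ⟨d, ρ, hρ⟩ g hg

/-- the sign formula for the permutation `σ` -/
def Sgn (p : ℕ) (G : Type u) [Group G] [Fintype G] [Fintype (IrrCharacter G)] [DecidableEq (IrrCharacter G)]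
    (M : Ideal AlgInt) (K : Type*) [Field K] [Algebra K ℂ] (σ : Equiv.Perm (IrrCharacter G)) : Prop :=
  ∀ T, Trans σ T → ∀ e : MonoidAlgebra K G, e * e = e → (∀ g, MemLocalRing M (algebraMap K ℂ (e.coeff g))) →
    ∀ m : IrrCharacter G → ℕ, (∀ χ : IrrCharacter G, ev (χ : G → ℂ) e = m χ) →
    Even (∑ χ : IrrCharacter G, m χ ^ 2 *
      ((Nat.card G).factorization p - (charDegree (χ : G → ℂ)).factorization p + if χ ∈ T then 0 else 1))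

variable [Fintype G] [Fintype (IrrCharacter G)] [DecidableEq (IrrCharacter G)]

theorem hroot_adjoin {N : ℕ} (hN0 : N ≠ 0) {ξ : ℂ} (hξ : IsPrimitiveRoot ξ N) (z : ℂ) (hz : z ^ N = 1) :
    ∃ k : IntermediateField.adjoin ℚ {ξ}, algebraMap (IntermediateField.adjoin ℚ {ξ}) ℂ k = z := by
  have : NeZero N := ⟨hN0⟩
  obtain ⟨i, -, rfl⟩ := hξ.eq_pow_of_pow_eq_one hz
  exact ⟨⟨ξ ^ i, pow_mem (IntermediateField.mem_adjoin_simple_self ℚ ξ) i⟩, rfl⟩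

/-- **the sign formula for odd `p`, final form**: `l ≡ k` modulo `p ^ a`, `k` a generator, `l ≡ 1` modulo `N` -/
theorem sgn_odd {p : ℕ} (hp2 : p ≠ 2) {M : Ideal AlgInt} (hM : IsPModular p M) {a N : ℕ} (ha : a ≠ 0) (hN : ¬ p ∣ N)
    (hG : Nat.card G ∣ p ^ a * N) {ξ : ℂ} (hξ : IsPrimitiveRoot ξ N) {k : ℕ} (hkp : ¬ p ∣ k)
    (hk : ∀ x : (ZMod (p ^ a))ˣ, ∃ i : ℕ, (x : ZMod (p ^ a)) = (k : ZMod (p ^ a)) ^ i) :
    ∃ (l : ℕ) (σ : Equiv.Perm (IrrCharacter G)), l.Coprime (p ^ a * N) ∧ l ≡ k [MOD p ^ a] ∧ l ≡ 1 [MOD N] ∧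
      (∀ χ g, (σ χ : G → ℂ) g = (χ : G → ℂ) (g ^ l)) ∧ Sgn p G M (IntermediateField.adjoin ℚ {ξ}) σ := by
  have hN0 : N ≠ 0 := by
    rintro rfl
    exact hN (dvd_zero _)
  have hn : p ^ a * N ≠ 0 := mul_ne_zero (pow_ne_zero _ hM.1.ne_zero) hN0
  obtain ⟨c, l, h1, h2, h3, h4⟩ := exists_aut (a := a) hM.1 hN hξ hkp
  obtain ⟨ζ, hζ⟩ : ∃ ζ : ℂ, IsPrimitiveRoot ζ (p ^ a) :=
    ⟨_, Complex.isPrimitiveRoot_exp _ (pow_ne_zero _ hM.1.ne_zero)⟩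
  have hck : c ζ = ζ ^ k := by
    rw [h4 ζ (by rw [pow_mul, hζ.pow_eq_one, one_pow]), pow_eq_pow_mod l hζ.pow_eq_one, h2,
      ← pow_eq_pow_mod k hζ.pow_eq_one]
  refine ⟨l, galp c, h1, h2, h3, galp_pow hn hG h4, ?_⟩
  intro T hT e he heO m hm
  exact sign_odd hp2 hM (fun z hz => H755.KS.Val.exists_unit' hM hN hξ.pow_eq_one z hz) he heO m hm ha hN hG
    (hroot_adjoin hN0 hξ) hζ hck hk (galp_apply c) hT

/-- **the sign formula for `p = 2`, final form**: `l ≡ 5` modulo `2 ^ a`, `l ≡ 1` modulo `N` -/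
theorem sgn_two {M : Ideal AlgInt} (hM : IsPModular 2 M) {a N : ℕ} (ha : 3 ≤ a) (hN : ¬ 2 ∣ N)
    (hG : Nat.card G ∣ 2 ^ a * N) {ξ : ℂ} (hξ : IsPrimitiveRoot ξ N) :
    ∃ (l : ℕ) (σ : Equiv.Perm (IrrCharacter G)), l.Coprime (2 ^ a * N) ∧ l ≡ 5 [MOD 2 ^ a] ∧ l ≡ 1 [MOD N] ∧
      (∀ χ g, (σ χ : G → ℂ) g = (χ : G → ℂ) (g ^ l)) ∧ Sgn 2 G M (IntermediateField.adjoin ℚ {ξ}) σ := by
  have hN0 : N ≠ 0 := by
    rintro rfl
    exact hN (dvd_zero _)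
  have hn : 2 ^ a * N ≠ 0 := mul_ne_zero (pow_ne_zero _ two_ne_zero) hN0
  obtain ⟨c, l, h1, h2, h3, h4⟩ := exists_aut (a := a) (k := 5) Nat.prime_two hN hξ (by norm_num)
  obtain ⟨ζ, hζ⟩ : ∃ ζ : ℂ, IsPrimitiveRoot ζ (2 ^ a) :=
    ⟨_, Complex.isPrimitiveRoot_exp _ (pow_ne_zero _ two_ne_zero)⟩
  have hck : c ζ = ζ ^ 5 := by
    rw [h4 ζ (by rw [pow_mul, hζ.pow_eq_one, one_pow]), pow_eq_pow_mod l hζ.pow_eq_one, h2,
      ← pow_eq_pow_mod 5 hζ.pow_eq_one]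
  refine ⟨l, galp c, h1, h2, h3, galp_pow hn hG h4, ?_⟩
  intro T hT e he heO m hm
  exact sign_two hM (fun z hz => H755.KS.Val.exists_unit' hM hN hξ.pow_eq_one z hz) he heO m hm ha hN hG
    (hroot_adjoin hN0 hξ) hζ hck (galp_apply c) hT

end Exists

end Cfsg.Agent.H988.PR
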